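/-
The words of the classes of subgroups of order three of the explicit `Fi24` with fixed labels, with their widths.
-/
import Mathlib
import Cfsg.Agent.Lib.Fischer.M24.R3.Main

set_option autoImplicit false
set_option maxRecDepth 100000
set_option Elab.async false

namespace Cfsg.Agent.Lib.Fischer.M24.R3

open Cfsg Cfsg.Agent.Lib.Compute.BitNet Cfsg.Agent.Lib.Fischer.M24.Net
open Cfsg.Agent.Lib.Fischer.Basic Cfsg.Agent.Lib.Fischer.Local
open Cfsg.Agent.Lib.Fischer.M24.Explicit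
open Cfsg.Agent.Lib.Fischer.M22.Rows
open Cfsg.Agent.Lib.Fischer.M24.Rows (posWF posWF_eq)

/-- A set of commuting labels fixed by the first word, with words reaching them. -/
def cliqA : List (ℕ × List ℕ) :=
  [(0, [7,6,5,4,3,2,1,0,11,10,8,3,4,2,3,8,5,6,4,5,3,4,2,3,8,7,6,5,4,3,2,1,0,11]),
   (202, [0,11,10,8,5,3,4,2,3,8,6,5,4,3,2,1,0,11]),
   (208, [0,11,10,4,5,3,4,2,3,8,6,5,4,3,2,1,0,11]),
   (1715, [0,11,10,2,3,8,4,3,2,1,0,11]),
   (5256, [2,1,0,11,10,8,4,3,2,1,0,11]),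
   (8000, [2,1,0,11,10,3,2,1,0,11]),
   (8004, [0,11,10,1,0,11]),
   (8005, [5,4,3,2,1,0,11,10,6,5,4,3,2,1,0,11])]

/-- A set of commuting labels fixed by the second word, with words reaching them. -/
def cliqB : List (ℕ × List ℕ) :=
  [(327, [0,11,10,7,6,5,4,3,8,9,4,3,8,5,6,4,5,3,4,2,3,8,7,6,5,4,3,2,1,0,11]),
   (7999, [3,2,1,0,11,10,8,3,2,1,0,11]),
   (8001, [3,2,1,0,11,10,4,3,2,1,0,11]),
   (8005, [5,4,3,2,1,0,11,10,6,5,4,3,2,1,0,11]),
   (59653, [10,3,8,9,4,3,8,2,3,4,0,1,2,3,8,9,5,4,0,1,2,3,8,6,5,4,3,2,1,0,11]),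
   (68038, [2,3,8,9,4,3,8,2,3,4,0,1,2,3,8,9,5,4,0,1,2,3,8,6,5,4,3,2,1,0,11])]

/-- A set of commuting labels fixed by the fourth word, with words reaching them. -/
def cliqD : List (ℕ × List ℕ) :=
  [(327, [0,11,10,7,6,5,4,3,8,9,4,3,8,5,6,4,5,3,4,2,3,8,7,6,5,4,3,2,1,0,11]),
   (1288, [0,11,10,3,4,2,3,8,9,8,4,5,3,4,2,3,8,6,5,4,3,2,1,0,11]),
   (2378, [0,11,10,3,4,2,3,8,9,5,3,4,2,3,8,6,5,4,3,2,1,0,11]),
   (8001, [3,2,1,0,11,10,4,3,2,1,0,11]),
   (8005, [5,4,3,2,1,0,11,10,6,5,4,3,2,1,0,11])]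

/-- The check of a set of commuting labels. -/
noncomputable def clOK (u : List ℕ) (l : List (ℕ × List ℕ)) : Bool :=
  incB (l.map Prod.fst) &&
  (l.all fun e => Nat.blt e.1 306936 && Nat.beq (posWF e.2 (lbl 10)) e.1 && Nat.beq (posWF u e.1) e.1) &&
  (l.all fun e => l.all fun f => Nat.beq e.1 f.1 || Nat.beq (posWF (e.2 ++ 10 :: e.2.reverse) f.1) f.1)

theorem clOK_A : clOK (uW 0) cliqA = true := by decide +kernel

theorem clOK_B : clOK (uW 1) cliqB = true := by decide +kernel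

theorem clOK_D : clOK (uW 3) cliqD = true := by decide +kernel

/-- The bound for a commuting set in the centralizer of a word. -/
theorem le_of_sub_DC {i : Fin 4} {E : Set G2} (hE : E ⊆ DC (Subgroup.zpowers (Lw (uW i)))) (hf : E.Finite)
    (hc : ∀ a ∈ E, ∀ b ∈ E, Commute a b) : E.ncard ≤ M23.R3.wv (sg i) + 1 := by
  obtain ⟨g, hg⟩ := Classical.choose_spec (exists_sigma i)
  have e : sg i = Classical.choose (exists_sigma i) := rfl
  have hinj : Function.Injective (MulAut.conj g) := (MulAut.conj g).injective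
  have h5 : ((MulAut.conj g) '' E).ncard = E.ncard := Set.ncard_image_of_injective _ hinj
  rw [← h5, e]
  apply width_leY (Fin.is_lt _)
  · rw [← hg, DC_conj]
    exact Set.image_mono hE
  · exact hf.image _
  · rintro _ ⟨x, hx, rfl⟩ _ ⟨y, hy, rfl⟩
    exact (hc x hx y hy).map (MulAut.conj g)

/-- A checked set of commuting labels gives a lower bound. -/
theorem clique_le {i : Fin 4} {l : List (ℕ × List ℕ)} (h : clOK (uW i) l = true) : l.length ≤ M23.R3.wv (sg i) + 1 := by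
  unfold clOK at h
  simp only [Bool.and_eq_true] at h
  obtain ⟨⟨h1, h2⟩, h3⟩ := h
  have hnd : (l.map Prod.fst).Nodup := incB_nodup h1
  have hmem : ∀ e ∈ l, e.1 < NN ∧ posW NL e.2 (lbl 10) = e.1 ∧ posW NL (uW i) e.1 = e.1 := by
    intro e he
    have h4 := List.all_eq_true.1 h2 e he
    simp only [Bool.and_eq_true] at h4
    refine ⟨Nat.le_of_ble_eq_true h4.1.1, ?_, ?_⟩
    · rw [← posWF_eq]
      exact Nat.eq_of_beq_eq_true h4.1.2
    · rw [← posWF_eq]
      exact Nat.eq_of_beq_eq_true h4.2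
  have hlt : ∀ x ∈ l.map Prod.fst, x < NN := by
    intro x hx
    obtain ⟨e, he, rfl⟩ := List.mem_map.1 hx
    exact (hmem e he).1
  set P : Set (Fin NN) := {r : Fin NN | (r : ℕ) ∈ l.map Prod.fst} with hP
  have hcard : P.ncard = l.length := by
    have := ncard_list_aux hnd hlt
    rw [List.length_map] at this
    exact this
  have hpt : ∀ p ∈ P, ∃ e ∈ l, e.1 = (p : ℕ) := by
    intro p hp
    obtain ⟨e, he, h5⟩ := List.mem_map.1 hp
    exact ⟨e, he, h5⟩
  have hfix : ∀ p ∈ P, Commute (Lw (uW i)) (t p) := by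
    intro p hp
    obtain ⟨e, he, h5⟩ := hpt p hp
    rw [comm_t_iff']
    apply Fin.ext
    rw [φ_Lw, ← h5]
    exact (hmem e he).2.2
  have hcomm : ∀ p ∈ P, ∀ q ∈ P, Commute (t p) (t q) := by
    intro p hp q hq
    obtain ⟨e, he, h5⟩ := hpt p hp
    obtain ⟨f, hf, h6⟩ := hpt q hq
    by_cases hpq : p = q
    · rw [hpq]
    have h7 := List.all_eq_true.1 (List.all_eq_true.1 h3 e he) f hf
    rw [Bool.or_eq_true] at h7
    rcases h7 with h7 | h7
    · exfalso
      apply hpq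
      apply Fin.ext
      rw [← h5, ← h6]
      exact Nat.eq_of_beq_eq_true h7
    · have h8 : t p = Lw (e.2 ++ 10 :: e.2.reverse) :=
        M24.A37.t_word (x := 10) (by decide) (by rw [← h5]; exact (hmem e he).2.1)
      rw [comm_t_iff', h8]
      apply Fin.ext
      rw [φ_Lw, ← h6, ← posWF_eq]
      exact Nat.eq_of_beq_eq_true h7
  have hle : (t '' P).ncard ≤ M23.R3.wv (sg i) + 1 := by
    apply le_of_sub_DC
    · rintro _ ⟨p, hp, rfl⟩
      refine ⟨t_mem p, ?_⟩
      rw [SetLike.mem_coe, Prime.centralizer_zpowers, Subgroup.mem_centralizer_singleton_iff]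
      exact (hfix p hp).eq.symm
    · exact (Set.toFinite P).image _
    · rintro _ ⟨p, hp, rfl⟩ _ ⟨q, hq, rfl⟩
      exact hcomm p hp q hq
  rwa [Set.ncard_image_of_injective _ t_inj, hcard] at hle

theorem key0 : ∀ c : Fin 4, 8 ≤ M23.R3.wv c + 1 → c = 0 := by decide

theorem key1 : ∀ c : Fin 4, 6 ≤ M23.R3.wv c + 1 → c = 0 ∨ c = 1 := by decide

theorem key3 : ∀ c : Fin 4, 5 ≤ M23.R3.wv c + 1 → c = 0 ∨ c = 1 ∨ c = 2 := by decide

theorem sg_0 : sg 0 = 0 := key0 _ (clique_le clOK_A)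

theorem sg_1 : sg 1 = 1 := by
  rcases key1 _ (clique_le clOK_B) with h | h
  · exact absurd (sg_inj (h.trans sg_0.symm)) (by decide)
  · exact h

theorem sg_3 : sg 3 = 2 := by
  rcases key3 _ (clique_le clOK_D) with h | h | h
  · exact absurd (sg_inj (h.trans sg_0.symm)) (by decide)
  · exact absurd (sg_inj (h.trans sg_1.symm)) (by decide)
  · exact h

theorem sg_2 : sg 2 = 3 := by
  obtain ⟨j, hj⟩ := sg_surj 3
  fin_cases j
  · exact absurd (hj.symm.trans sg_0) (by decide)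
  · exact absurd (hj.symm.trans sg_1) (by decide)
  · exact hj
  · exact absurd (hj.symm.trans sg_3) (by decide)

/-- The width of the class of a word. -/
def wW : Fin 4 → ℕ
  | 0 => 8
  | 1 => 6
  | 2 => 2
  | 3 => 5

theorem wW_sg (i : Fin 4) : wW i = wf (sg i) := by
  fin_cases i
  · show wW 0 = wf (sg 0)
    rw [sg_0]
    rfl
  · show wW 1 = wf (sg 1)
    rw [sg_1]
    rfl
  · show wW 2 = wf (sg 2)
    rw [sg_2]
    rfl
  · show wW 3 = wf (sg 3)
    rw [sg_3]
    rfl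

/-- The index of the class of a word among the classes. -/
noncomputable def sg5 (i : Fin 4) : Fin 5 := ⟨sg i, by have := (sg i).2; omega⟩

/-- The subgroup of a word is conjugate to the class of the list of representatives. -/
theorem exists_conj_sg (i : Fin 4) : ∃ g : G2, (Subgroup.zpowers (Lw (uW i))).map (MulAut.conj g).toMonoidHom = Yf (sg5 i) := by
  obtain ⟨g, hg⟩ := Classical.choose_spec (exists_sigma i)
  refine ⟨g, ?_⟩
  have h4 : ((sg i : Fin 4) : ℕ) < 4 := (sg i).2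
  show _ = (if ((sg i : Fin 4) : ℕ) < 4 then Yt (sg i) else Y4)
  rw [if_pos h4]
  exact hg

/-- The width of the subgroup of a word. -/
theorem width_uW (i : Fin 4) : commutingWidth (DC (Subgroup.zpowers (Lw (uW i)))) = wW i := by
  obtain ⟨g, hg⟩ := exists_conj_sg i
  rw [← width_conj2 g, hg, width_Yf, wW_sg]
  rfl

/-- A subgroup of order three with the width of a word is conjugate to the subgroup of the word. -/
theorem conj_of_width {X : Subgroup G2} (hX : Nat.card X = 3) (i : Fin 4) (hw : commutingWidth (DC X) = wW i) :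
    ∃ g : G2, X.map (MulAut.conj g).toMonoidHom = Subgroup.zpowers (Lw (uW i)) := by
  obtain ⟨c, g, hg⟩ := classify2 X hX
  obtain ⟨h, hh⟩ := exists_conj_sg i
  have h1 : wf c = wf (sg5 i) := by
    have e : wf (sg5 i) = wW i := (wW_sg i).symm
    rw [e, ← hw, ← width_conj2 g, hg, width_Yf]
  have h2 : c = sg5 i := wf_inj h1
  refine ⟨h⁻¹ * g, ?_⟩
  rw [map_conj_mul2, hg, h2, ← hh, ← map_conj_mul2, inv_mul_cancel]
  ext z
  simp

end Cfsg.Agent.Lib.Fischer.M24.R3
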